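import Cfsg.Agent.H447.CTab
import Cfsg.Agent.H210.TC.Row

/-!
# Products of two classes from a `H447.CTab.Table` (helper359)

`real_of_unique` : a class with a unique centralizer order is real;
`prd_of_table` : a nonzero class structure constant of two real classes and a third class, computed with the rational characters `R`
and the sums `P` of two conjugate characters.
-/

set_option autoImplicit false

namespace Cfsg.Agent.H359.CT

open Cfsg Cfsg.Agent.Characters Cfsg.Agent.Characters.Core Cfsg.Agent.H447.CTab Cfsg.Agent.H65.Ore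
open scoped ComplexConjugate

universe u

/-- the value of a character at a real element is real -/
theorem conj_of_real {G : Type u} [Group G] [Finite G] {χ : G → ℂ} (h : IsIrrCharacter G χ) {x : G}
    (hx : IsConj x x⁻¹) : conj (χ x) = χ x := by
  rw [← isCharacter_apply_inv (isIrr_isCharacter h)]
  exact (classFunction_apply_eq (isIrr_isClassFunction h) hx).symm

theorem card_cent_of_isConj {G : Type*} [Group G] {a b : G} (h : IsConj a b) :
    Nat.card (Subgroup.centralizer ({a} : Set G)) = Nat.card (Subgroup.centralizer ({b} : Set G)) := by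
  obtain ⟨g, rfl⟩ := isConj_iff.1 h
  refine Nat.card_congr ⟨fun x => ⟨g * x * g⁻¹, ?_⟩, fun x => ⟨g⁻¹ * x * g, ?_⟩, fun x => ?_, fun x => ?_⟩
  · have h := Subgroup.mem_centralizer_singleton_iff.1 x.2
    rw [Subgroup.mem_centralizer_singleton_iff]
    calc g * x * g⁻¹ * (g * a * g⁻¹) = g * (x * a) * g⁻¹ := by group
      _ = g * (a * x) * g⁻¹ := by rw [h]
      _ = g * a * g⁻¹ * (g * x * g⁻¹) := by group
  · have h := Subgroup.mem_centralizer_singleton_iff.1 x.2
    rw [Subgroup.mem_centralizer_singleton_iff]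
    calc g⁻¹ * x * g * a = g⁻¹ * (x * (g * a * g⁻¹)) * g := by group
      _ = g⁻¹ * ((g * a * g⁻¹) * x) * g := by rw [h]
      _ = a * (g⁻¹ * x * g) := by group
  · apply Subtype.ext
    simp [mul_assoc]
  · apply Subtype.ext
    simp [mul_assoc]

/-- a class with a unique centralizer order is real -/
theorem real_of_unique {G : Type u} [Group G] [Finite G] {k : ℕ} (T : ClassTab G k) {i : Fin k}
    (h : ∀ j, T.c j = T.c i → j = i) : IsConj (T.x i) (T.x i)⁻¹ := by
  obtain ⟨j, hj⟩ := T.cover (T.x i)⁻¹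
  have h1 := T.card j
  have h2 := T.card i
  have hs : Subgroup.centralizer ({(T.x i)⁻¹} : Set G) = Subgroup.centralizer ({T.x i} : Set G) := by
    ext z
    rw [Subgroup.mem_centralizer_singleton_iff, Subgroup.mem_centralizer_singleton_iff]
    exact ⟨fun h => by simpa using (Commute.inv_right (show Commute z (T.x i)⁻¹ from h)).eq,
      fun h => (Commute.inv_right (show Commute z (T.x i) from h)).eq⟩
  have h3 := card_cent_of_isConj hj
  rw [h1, hs, h2] at h3
  rwa [h j h3] at hj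

variable {G : Type u} [Group G] [Finite G] {k r m n : ℕ} {T : ClassTab G k} {rc : Fin k → Fin r}

/-- **A nonzero structure constant** -/
theorem prd_of_table (Θ : Table T rc m n) {i j : Fin k} (hi : IsConj (T.x i) (T.x i)⁻¹)
    (hj : IsConj (T.x j) (T.x j)⁻¹) (l : Fin k)
    (h : ∑ a, (Θ.R a (rc i) : ℚ) * Θ.R a (rc j) * Θ.R a (rc l) / Θ.R a (rc Θ.i0) +
      ∑ b, (Θ.P b (rc i) : ℚ) * Θ.P b (rc j) * Θ.P b (rc l) / (2 * Θ.P b (rc Θ.i0)) ≠ 0) :
    Prd (T.x i) (T.x j) (T.x l) := by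
  classical
  have : Finite (IrrCharacter G) := finite_irr
  have := Fintype.ofFinite (IrrCharacter G)
  apply prd_of_ne_zero
  obtain ⟨χ, ψ, hχ, hψ, -, hbij⟩ := Θ.exists_irr
  rw [← (Equiv.ofBijective _ hbij).sum_comp, Fintype.sum_sum_type, Fintype.sum_prod_type]
  have h1 : ∀ a, (χ a : G → ℂ) (T.x i) * (χ a : G → ℂ) (T.x j) * conj ((χ a : G → ℂ) (T.x l)) / (χ a : G → ℂ) 1 =
      (((Θ.R a (rc i) : ℚ) * Θ.R a (rc j) * Θ.R a (rc l) / Θ.R a (rc Θ.i0) : ℚ) : ℂ) := by
    intro a
    rw [← Θ.hi0, hχ, hχ, hχ, hχ, map_intCast]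
    push_cast
    rfl
  have h2 : ∀ b, (ψ b : G → ℂ) (T.x i) * (ψ b : G → ℂ) (T.x j) * conj ((ψ b : G → ℂ) (T.x l)) / (ψ b : G → ℂ) 1 +
      (cj (ψ b) : G → ℂ) (T.x i) * (cj (ψ b) : G → ℂ) (T.x j) * conj ((cj (ψ b) : G → ℂ) (T.x l)) /
        (cj (ψ b) : G → ℂ) 1 =
      (((Θ.P b (rc i) : ℚ) * Θ.P b (rc j) * Θ.P b (rc l) / (2 * Θ.P b (rc Θ.i0)) : ℚ) : ℂ) := by
    intro b
    have e0 : ∀ g, (cj (ψ b) : G → ℂ) g = conj ((ψ b : G → ℂ) g) := fun g => rfl
    have ei := hψ b i
    have ej := hψ b j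
    have el := hψ b l
    have e1 := hψ b Θ.i0
    obtain ⟨d, hd0, hd⟩ := isIrr_apply_one (ψ b).2
    rw [e0] at ei ej el e1
    rw [conj_of_real (ψ b).2 hi] at ei
    rw [conj_of_real (ψ b).2 hj] at ej
    rw [Θ.hi0, hd, Complex.conj_natCast] at e1
    rw [e0, e0, e0, e0, conj_of_real (ψ b).2 hi, conj_of_real (ψ b).2 hj, hd, Complex.conj_natCast, Complex.conj_conj]
    push_cast
    rw [← ei, ← ej, ← el, ← e1]
    have hd1 : (d : ℂ) ≠ 0 := by
      intro h0
      rw [h0] at hd
      exact isIrr_apply_one_ne_zero (ψ b).2 hd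
    field_simp
    ring
  simp only [Equiv.ofBijective_apply, Sum.elim_inl, Sum.elim_inr, Fintype.sum_bool, if_true, Bool.false_eq_true,
    if_false, h1, h2]
  rw [← Rat.cast_sum, ← Rat.cast_sum, ← Rat.cast_add]
  exact_mod_cast h

end Cfsg.Agent.H359.CT
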