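import Cfsg.Agent.H359.CT.McLCnt
import Cfsg.Agent.H359.CT.Prd

/-!
# The row `McL` of S4173, S2464, S2452 (helper359)

Every nonidentity element is a product of two elements of the class 5B.
-/

set_option autoImplicit false
set_option maxRecDepth 100000

namespace Cfsg.Agent.H359.CT.McL

open Cfsg Equiv Subgroup Cfsg.Agent.H359.CT Cfsg.Agent.H447.CTab Cfsg.Agent.McLType.Gens Cfsg.Agent.H210.TC
  Cfsg.Agent.H65.Ore
open Cfsg.Agent.H41.McLTwo.Ords (os order_xs)

universe u

/-- the structure constants of the class 5B -/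
theorem sc_ne : ∀ l : Fin 24, l ≠ 0 →
    ∑ a : Fin 12, (R a (rc 6) : ℚ) * R a (rc 6) * R a (rc l) / R a (rc 0) +
      ∑ b : Fin 6, (P b (rc 6) : ℚ) * P b (rc 6) * P b (rc l) / (2 * P b (rc 0)) ≠ 0 := by
  decide +kernel

section

variable {G : Type u} [Group G] [Finite G] (e : G ≃* ↥K0)

/-- the class 5B is real -/
theorem real_5B : IsConj ((clT e).x 6) ((clT e).x 6)⁻¹ :=
  real_of_unique (clT e) (by
    have h4 : ∀ j : Fin 24, cc j = cc 6 → j = 6 := by decide +kernel
    exact h4)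

theorem prd_5B {g : G} (hg : g ≠ 1) : Prd ((clT e).x 6) ((clT e).x 6) g := by
  obtain ⟨l, hl⟩ := (clT e).cover g
  refine Prd.of_isConj ?_ hl
  refine prd_of_table (tab e) (real_5B e) (real_5B e) l (sc_ne l ?_)
  rintro rfl
  apply hg
  have h1 : (clT e).x 0 = 1 := (tab e).hi0
  rw [h1] at hl
  exact isConj_one_right.1 hl

end

theorem row3_mcl {S : Type*} [Group S] (h : Spor.IsoMcL S) : Row3 S := by
  obtain ⟨f⟩ := exists_e h
  refine Row3.of_equiv f ?_
  have h5 : orderOf ((clT (MulEquiv.refl ↥K0)).x 6) = 5 := by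
    rw [order_x]
    decide
  exact Row3.of_sq (x := (clT (MulEquiv.refl ↥K0)).x 6) (by rw [h5]; norm_num) (by rw [h5]; norm_num)
    fun g hg => prd_5B (MulEquiv.refl ↥K0) hg

end Cfsg.Agent.H359.CT.McL
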